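import Cfsg.Agent.Lib.Helper94.SpRow.Base
import Cfsg.Agent.Lib.Helper13.Asch.Defs

/-!
Rows of the symplectic campaign, wave 2: vocabulary for the `q = 3` exceptions
(sign-commuting matrices, the standard generators of `2_-^(1+4)` in `Sp_4(3)`).
-/

set_option autoImplicit false
set_option linter.unusedSectionVars false

namespace Cfsg.Agent.Lib.Helper94.SpRow

open Cfsg Cfsg.Geo Matrix
open scoped MatrixGroups

variable {F : Type*} [Field F]

section general

variable {ι : Type} [Fintype ι] [DecidableEq ι]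

/-- `g` commutes or anticommutes with `X` -/
def SC (g X : Matrix ι ι F) : Prop := g * X = X * g ∨ g * X = -(X * g)

lemma SC.mul_left {g h X : Matrix ι ι F} (hg : SC g X) (hh : SC h X) : SC (g * h) X := by
  rcases hg with hg | hg <;> rcases hh with hh | hh
  · left; rw [mul_assoc, hh, ← mul_assoc, hg, mul_assoc]
  · right; rw [mul_assoc, hh, mul_neg, ← mul_assoc, hg, mul_assoc]
  · right; rw [mul_assoc, hh, ← mul_assoc, hg, neg_mul, mul_assoc]
  · left; rw [mul_assoc, hh, mul_neg, ← mul_assoc, hg, neg_mul, neg_neg, mul_assoc]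

lemma SC.mul_right {g X Y : Matrix ι ι F} (hX : SC g X) (hY : SC g Y) : SC g (X * Y) := by
  rcases hX with hX | hX <;> rcases hY with hY | hY
  · left; rw [← mul_assoc, hX, mul_assoc, hY, mul_assoc]
  · right; rw [← mul_assoc, hX, mul_assoc, hY, mul_neg, mul_assoc]
  · right; rw [← mul_assoc, hX, neg_mul, mul_assoc, hY, mul_assoc]
  · left; rw [← mul_assoc, hX, neg_mul, mul_assoc, hY, mul_neg, neg_neg, mul_assoc]

lemma SC.neg_right {g X : Matrix ι ι F} (hX : SC g X) : SC g (-X) := by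
  rcases hX with hX | hX
  · left; rw [mul_neg, hX, neg_mul]
  · right; rw [mul_neg, hX, neg_mul]

lemma SC.one_right (g : Matrix ι ι F) : SC g 1 := Or.inl (by simp)

lemma SC.one_left (X : Matrix ι ι F) : SC 1 X := Or.inl (by simp)

lemma SC.inv {g : GL ι F} {X : Matrix ι ι F} (h : SC (g : Matrix ι ι F) X) :
    SC ((g⁻¹ : GL ι F) : Matrix ι ι F) X := by
  have h1 : ((g⁻¹ : GL ι F) : Matrix ι ι F) * (g : Matrix ι ι F) = 1 := by
    rw [← Units.val_mul, inv_mul_cancel, Units.val_one]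
  have h2 : (g : Matrix ι ι F) * ((g⁻¹ : GL ι F) : Matrix ι ι F) = 1 := by
    rw [← Units.val_mul, mul_inv_cancel, Units.val_one]
  set gi := ((g⁻¹ : GL ι F) : Matrix ι ι F)
  set gm := (g : Matrix ι ι F)
  rcases h with h | h
  · left
    calc gi * X = gi * X * (gm * gi) := by rw [h2, mul_one]
      _ = gi * (X * gm) * gi := by simp only [mul_assoc]
      _ = gi * (gm * X) * gi := by rw [h]
      _ = (gi * gm) * X * gi := by simp only [mul_assoc]
      _ = X * gi := by rw [h1, one_mul]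
  · right
    have h' : X * gm = -(gm * X) := by rw [h, neg_neg]
    calc gi * X = gi * X * (gm * gi) := by rw [h2, mul_one]
      _ = gi * (X * gm) * gi := by simp only [mul_assoc]
      _ = gi * (-(gm * X)) * gi := by rw [h']
      _ = -((gi * gm) * X * gi) := by simp only [mul_assoc, mul_neg, neg_mul]
      _ = -(X * gi) := by rw [h1, one_mul]

/-- the elements of `I` that commute or anticommute with every member of `S` -/
def RSg (I : Subgroup (GL ι F)) (S : Set (Matrix ι ι F)) : Subgroup (GL ι F) where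
  carrier := {g | g ∈ I ∧ ∀ X ∈ S, SC (g : Matrix ι ι F) X}
  mul_mem' {a b} ha hb := ⟨I.mul_mem ha.1 hb.1, fun X hX => by
    rw [Units.val_mul]; exact (ha.2 X hX).mul_left (hb.2 X hX)⟩
  one_mem' := ⟨I.one_mem, fun X _ => by rw [Units.val_one]; exact SC.one_left X⟩
  inv_mem' {a} ha := ⟨I.inv_mem ha.1, fun X hX => (ha.2 X hX).inv⟩

lemma mem_RSg {I : Subgroup (GL ι F)} {S : Set (Matrix ι ι F)} {g : GL ι F} :
    g ∈ RSg I S ↔ g ∈ I ∧ ∀ X ∈ S, SC (g : Matrix ι ι F) X := Iff.rfl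

end general

/-- membership in `spGL` in terms of the Gram matrix `J` -/
lemma mem_spGL_iff_gram {m : ℕ} {g : GL (Fin m ⊕ Fin m) F} :
    g ∈ spGL m F ↔ (g : Matrix _ _ F)ᵀ * Matrix.J (Fin m) F * (g : Matrix _ _ F) =
      Matrix.J (Fin m) F := by
  have key : ∀ u v : Fin m ⊕ Fin m → F,
      sympForm m F ((g : Matrix _ _ F) *ᵥ u) ((g : Matrix _ _ F) *ᵥ v) =
        u ⬝ᵥ (((g : Matrix _ _ F)ᵀ * Matrix.J (Fin m) F * (g : Matrix _ _ F)) *ᵥ v) := by
    intro u v
    rw [sympForm, ← Matrix.mulVec_mulVec, ← Matrix.mulVec_mulVec, Matrix.mulVec_transpose,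
      dotProduct_comm u, ← Matrix.dotProduct_mulVec, dotProduct_comm]
  rw [mem_spGL]
  constructor
  · intro h
    ext i j
    have := h (Pi.single i 1) (Pi.single j 1)
    rw [key, sympForm] at this
    simpa using this
  · intro h u v
    rw [key, h, sympForm]

/-- `1 ⊗ diag(1,-1)` -/
def A0 : Matrix (Fin 2 ⊕ Fin 2) (Fin 2 ⊕ Fin 2) F :=
  Matrix.fromBlocks !![1, 0; 0, -1] 0 0 !![1, 0; 0, -1]

/-- `1 ⊗ swap` -/
def B0 : Matrix (Fin 2 ⊕ Fin 2) (Fin 2 ⊕ Fin 2) F :=
  Matrix.fromBlocks !![0, 1; 1, 0] 0 0 !![0, 1; 1, 0]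

/-- `[[1,1],[1,-1]] ⊗ 1` -/
def D0 : Matrix (Fin 2 ⊕ Fin 2) (Fin 2 ⊕ Fin 2) F :=
  Matrix.fromBlocks 1 1 1 (-1)

/-- the group `2_-^(1+4)` of `Sp_4(3)` attached to the standard `J` -/
def R0 (F : Type*) [Field F] : Subgroup (GL (Fin 2 ⊕ Fin 2) F) :=
  RSg (spGL 2 F) {Matrix.J (Fin 2) F, A0, B0}

end Cfsg.Agent.Lib.Helper94.SpRow
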