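import Mathlib
import Cfsg.Prelude.Def_GeometricClasses

/-!
Rows part of the symplectic campaign: the sharper form `ClsSp` of the conclusion
"H lies in a member of a symplectic class" (every disjunct is stated as `H ≤ stabiliser in GL`,
and the sixth class records `2 * m = 2 ^ k`).
-/

set_option autoImplicit false

namespace Cfsg.Agent.Lib.Helper94.SpRow

open Cfsg Cfsg.Geo
open scoped MatrixGroups Matrix

variable {F : Type*} [Field F]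

/-- The eleven kinds of members of `InSymplecticClass` (frozen order: the seven of
`InSymplecticPartialClass`, then the four others), each stated as `data ∧ H ≤ X` with `X` the
stabiliser in `GL`, with the single extra conjunct `2 * m = 2 ^ k` in the sixth class. -/
def ClsSp [Fintype F] (m : ℕ) (H : Subgroup (GL (Fin m ⊕ Fin m) F)) : Prop :=
  (∃ W : Submodule F (Fin m ⊕ Fin m → F), W ≠ ⊥ ∧ IsTotallySingularFor (sympForm m F) W ∧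
      H ≤ subspaceStabilizer W) ∨
  (∃ W : Submodule F (Fin m ⊕ Fin m → F), W ≠ ⊥ ∧ IsNondegenerateOn (sympForm m F) W ∧
      Module.finrank F W < m ∧ H ≤ subspaceStabilizer W) ∨
  (∃ (t k : ℕ) (D : Fin t → Submodule F (Fin m ⊕ Fin m → F)),
      IsNondegenerateMDecomposition (sympForm m F) k D ∧ H ≤ decompositionStabilizer D) ∨
  (∃ (D : Fin 2 → Submodule F (Fin m ⊕ Fin m → F)), Odd (Fintype.card F) ∧ IsMDecomposition m D ∧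
      (∀ i, IsTotallySingularFor (sympForm m F) (D i)) ∧ H ≤ decompositionStabilizer D) ∨
  (∃ (F₀ : Subfield F) (r : ℕ) (P : GL (Fin m ⊕ Fin m) F) (ζ : F), r.Prime ∧
      Fintype.card F = Nat.card F₀ ^ r ∧ ζ ≠ 0 ∧
      IsFormRationalStructure (sympForm m F) F₀ ζ P ∧ H ≤ subfieldSubgroup F₀ P) ∨
  (∃ (R : Subgroup (GL (Fin m ⊕ Fin m) F)) (p k : ℕ), IsSymplecticTypeGroup 2 R ∧
      ActsAbsolutelyIrreducibly (matrixSet R) ∧ R ≤ similarityGroup (sympForm m F) ∧ p.Prime ∧ Odd p ∧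
      Fintype.card F = p ∧
      Nat.card R = 2 ^ (1 + 2 * k) ∧ Nat.card (Subgroup.center R) = 2 ∧ IsOfMinusType k R ∧
      2 * m = 2 ^ k ∧ H ≤ subgroupNormalizer R) ∨
  (∃ Q : (Fin m ⊕ Fin m → F) → F, ¬ Odd (Fintype.card F) ∧ IsNondegenerateQuadraticForm Q ∧
      (∀ u v, QuadraticMap.polar Q u v = sympForm m F u v) ∧ H ≤ quadSimilarityGroup Q) ∨
  (∃ (r : ℕ) (K : Subalgebra F (Matrix (Fin m ⊕ Fin m) (Fin m ⊕ Fin m) F)), r.Prime ∧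
      IsFieldSubalgebra r K ∧ IsSelfAdjointFor (sympForm m F) K ∧
      (∀ k ∈ K, ∀ v, sympForm m F (k *ᵥ v) v = 0) ∧ H ≤ subalgebraNormalizer K) ∨
  (∃ K : Subalgebra F (Matrix (Fin m ⊕ Fin m) (Fin m ⊕ Fin m) F), Odd (Fintype.card F) ∧
      IsFieldSubalgebra 2 K ∧ IsAdjointClosedFor (sympForm m F) K ∧
      ¬ IsSelfAdjointFor (sympForm m F) K ∧ H ≤ subalgebraNormalizer K) ∨
  (∃ (n₁ n₂ : ℕ) (e : (Fin m ⊕ Fin m) ≃ Fin n₁ × Fin n₂) (P : GL (Fin m ⊕ Fin m) F)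
      (f₁ : (Fin n₁ → F) → (Fin n₁ → F) → F) (f₂ : (Fin n₂ → F) → (Fin n₂ → F) → F),
      Odd (Fintype.card F) ∧ 3 ≤ n₂ ∧ IsSymplecticForm f₁ ∧ IsSymmetricForm f₂ ∧
      IsTensorFormStructure id (sympForm m F) f₁ f₂ e P ∧ H ≤ tensorProductSubgroup n₁ n₂ e P) ∨
  (∃ (k t : ℕ) (e : (Fin m ⊕ Fin m) ≃ (Fin t → Fin k)) (P : GL (Fin m ⊕ Fin m) F)
      (f₁ : (Fin k → F) → (Fin k → F) → F),
      Odd (Fintype.card F) ∧ Odd t ∧ 3 ≤ t ∧ ¬ (Fintype.card F = 3 ∧ k = 2) ∧ IsSymplecticForm f₁ ∧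
      IsTensorPowerFormStructure id (sympForm m F) f₁ e P ∧ H ≤ tensorWreathSubgroup k t e P)

/-- `ClsSp` gives the first alternative of the frozen subgroup structure theorem. -/
theorem ClsSp.inClass [Fintype F] {m : ℕ} {H : Subgroup (GL (Fin m ⊕ Fin m) F)}
    (h : ClsSp m H) (hH : H ≤ spGL m F) :
    ∃ M : Subgroup (GL (Fin m ⊕ Fin m) F), InSymplecticClass m F M ∧ H ≤ M := by
  rcases h with ⟨W, h0, h1, h⟩ | ⟨W, h0, h1, h2, h⟩ | ⟨t, k, D, hD, h⟩ | ⟨D, ho, hD, hts, h⟩ |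
    ⟨F₀, r, P, ζ, hr, hc, hζ, hs, h⟩ | ⟨R, p, k, h1, h2, h3, h4, h5, h6, h7, h8, h9, -, h⟩ |
    ⟨Q, ho, hQ, hp, h⟩ | ⟨r, K, hr, hK, hs, ha, h⟩ | ⟨K, ho, hK, hc, hn, h⟩ |
    ⟨n₁, n₂, e, P, f₁, f₂, ho, h3, h1, h2, hs, h⟩ | ⟨k, t, e, P, f₁, ho, ht, h3, hx, h1, hs, h⟩
  · exact ⟨_, Or.inl (Or.inl ⟨W, h0, h1, rfl⟩), le_inf h hH⟩
  · exact ⟨_, Or.inl (Or.inr (Or.inl ⟨W, h0, h1, h2, rfl⟩)), le_inf h hH⟩
  · exact ⟨_, Or.inl (Or.inr (Or.inr (Or.inl ⟨t, k, D, hD, rfl⟩))), le_inf h hH⟩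
  · exact ⟨_, Or.inl (Or.inr (Or.inr (Or.inr (Or.inl ⟨D, ho, hD, hts, rfl⟩)))), le_inf h hH⟩
  · exact ⟨_, Or.inl (Or.inr (Or.inr (Or.inr (Or.inr (Or.inl ⟨F₀, r, P, ζ, hr, hc, hζ, hs, rfl⟩))))),
      le_inf h hH⟩
  · exact ⟨_, Or.inl (Or.inr (Or.inr (Or.inr (Or.inr (Or.inr (Or.inl
      ⟨R, p, k, h1, h2, h3, h4, h5, h6, h7, h8, h9, rfl⟩)))))), le_inf h hH⟩
  · exact ⟨_, Or.inl (Or.inr (Or.inr (Or.inr (Or.inr (Or.inr (Or.inr ⟨Q, ho, hQ, hp, rfl⟩)))))),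
      le_inf h hH⟩
  · exact ⟨_, Or.inr (Or.inl ⟨r, K, hr, hK, hs, ha, rfl⟩), le_inf h hH⟩
  · exact ⟨_, Or.inr (Or.inr (Or.inl ⟨K, ho, hK, hc, hn, rfl⟩)), le_inf h hH⟩
  · exact ⟨_, Or.inr (Or.inr (Or.inr (Or.inl ⟨n₁, n₂, e, P, f₁, f₂, ho, h3, h1, h2, hs, rfl⟩))),
      le_inf h hH⟩
  · exact ⟨_, Or.inr (Or.inr (Or.inr (Or.inr ⟨k, t, e, P, f₁, ho, ht, h3, hx, h1, hs, rfl⟩))),
      le_inf h hH⟩

end Cfsg.Agent.Lib.Helper94.SpRow
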