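import Mathlib
import Cfsg.Prelude.Def_GeometricClasses
import Cfsg.Agent.Lib.Helper94.SympWrap
import Cfsg.Agent.Lib.Helper94.SpRow.Defs

/-!
Rows part of the symplectic campaign: basic API (the form, the transvections `tvG` as elements of
`GL`, generation of `spGL` by them, the maximality lemma).
-/

set_option autoImplicit false

namespace Cfsg.Agent.Lib.Helper94.SpRow

open Cfsg Cfsg.Geo Cfsg.Agent.Lib.Helper94
open scoped MatrixGroups Matrix

variable {F : Type*} [Field F] {m : ℕ}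

/-! ### the form -/

lemma sf_add_left (x y v : Fin m ⊕ Fin m → F) :
    sympForm m F (x + y) v = sympForm m F x v + sympForm m F y v := by
  simp only [← sympB_apply, map_add, LinearMap.add_apply]

lemma sf_smul_left (c : F) (x v : Fin m ⊕ Fin m → F) :
    sympForm m F (c • x) v = c * sympForm m F x v := by
  simp only [← sympB_apply, map_smul, LinearMap.smul_apply, smul_eq_mul]

lemma sf_add_right (v x y : Fin m ⊕ Fin m → F) :
    sympForm m F v (x + y) = sympForm m F v x + sympForm m F v y := by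
  simp only [← sympB_apply, map_add]

lemma sf_smul_right (c : F) (v x : Fin m ⊕ Fin m → F) :
    sympForm m F v (c • x) = c * sympForm m F v x := by
  simp only [← sympB_apply, map_smul, smul_eq_mul]

lemma sf_self (v : Fin m ⊕ Fin m → F) : sympForm m F v v = 0 := by
  rw [← sympB_apply]; exact sympB_isAlt m v

lemma sf_swap (u v : Fin m ⊕ Fin m → F) : sympForm m F u v = - sympForm m F v u := by
  simp only [← sympB_apply]; exact alt_swap (sympB_isAlt m) u v

lemma sf_zero_left (v : Fin m ⊕ Fin m → F) : sympForm m F 0 v = 0 := by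
  simp only [← sympB_apply, map_zero, LinearMap.zero_apply]

lemma sf_zero_right (v : Fin m ⊕ Fin m → F) : sympForm m F v 0 = 0 := by
  simp only [← sympB_apply, map_zero]

lemma sf_neg_left (x v : Fin m ⊕ Fin m → F) : sympForm m F (-x) v = - sympForm m F x v := by
  simp only [← sympB_apply, map_neg, LinearMap.neg_apply]

lemma sf_neg_right (v x : Fin m ⊕ Fin m → F) : sympForm m F v (-x) = - sympForm m F v x := by
  simp only [← sympB_apply, map_neg]

lemma sf_sub_left (x y v : Fin m ⊕ Fin m → F) :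
    sympForm m F (x - y) v = sympForm m F x v - sympForm m F y v := by
  simp only [← sympB_apply, map_sub, LinearMap.sub_apply]

lemma sf_sub_right (v x y : Fin m ⊕ Fin m → F) :
    sympForm m F v (x - y) = sympForm m F v x - sympForm m F v y := by
  simp only [← sympB_apply, map_sub]

/-- non-degeneracy -/
lemma sf_exists_ne {v : Fin m ⊕ Fin m → F} (hv : v ≠ 0) : ∃ x, sympForm m F x v ≠ 0 := by
  by_contra hcon
  push Not at hcon
  apply hv
  have hN := sympB_nondegenerate (F := F) m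
  refine hN.2 v fun x => ?_
  rw [sympB_apply]; exact hcon x

lemma sf_exists_eq_one {v : Fin m ⊕ Fin m → F} (hv : v ≠ 0) : ∃ x, sympForm m F x v = 1 := by
  obtain ⟨x, hx⟩ := sf_exists_ne hv
  exact ⟨(sympForm m F x v)⁻¹ • x, by rw [sf_smul_left, inv_mul_cancel₀ hx]⟩

lemma sf_isSymplecticForm : IsSymplecticForm (sympForm m F) where
  bilinear := ⟨sf_add_left, sf_smul_left, sf_add_right, sf_smul_right⟩
  skew := sf_swap
  alternating := sf_self
  nondegenerate := fun v hv => by
    obtain ⟨x, hx⟩ := sf_exists_ne hv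
    exact ⟨⟨x, hx⟩, ⟨x, by rw [sf_swap]; exact neg_ne_zero.2 hx⟩⟩

lemma mem_spGL {g : GL (Fin m ⊕ Fin m) F} :
    g ∈ spGL m F ↔ ∀ u v, sympForm m F ((g : Matrix _ _ F) *ᵥ u) ((g : Matrix _ _ F) *ᵥ v) =
      sympForm m F u v := Iff.rfl

/-! ### transvections -/

/-- The symplectic transvection `x ↦ x + c f(x, v) v` as an element of `GL`. -/
noncomputable def tvG (v : Fin m ⊕ Fin m → F) (c : F) : GL (Fin m ⊕ Fin m) F :=
  (glEquiv _ F).symm (st (sympB m F) (sympB_isAlt m) v c)

lemma tvG_mulVec (v : Fin m ⊕ Fin m → F) (c : F) (x : Fin m ⊕ Fin m → F) :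
    ((tvG v c : GL (Fin m ⊕ Fin m) F) : Matrix _ _ F) *ᵥ x = x + (c * sympForm m F x v) • v := by
  rw [← glEquiv_apply, tvG, MulEquiv.apply_symm_apply, st_apply, sympB_apply]

lemma tvG_mem (v : Fin m ⊕ Fin m → F) (c : F) : tvG v c ∈ spGL m F := by
  rw [mem_spGL_iff, tvG, MulEquiv.apply_symm_apply]
  exact st_isIsom _ _ _ _

lemma gl_ext {ι : Type} [Fintype ι] [DecidableEq ι] {g h : GL ι F}
    (H : ∀ x, (g : Matrix ι ι F) *ᵥ x = (h : Matrix ι ι F) *ᵥ x) : g = h := by
  apply (glEquiv ι F).injective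
  ext1 x
  rw [glEquiv_apply, glEquiv_apply, H]

lemma tvG_coe (v : Fin m ⊕ Fin m → F) (c : F) :
    ((tvG v c : GL (Fin m ⊕ Fin m) F) : Matrix _ _ F) = sympTransvection m v c := by
  apply Matrix.toLin'.injective
  apply LinearMap.ext
  intro x
  simp only [Matrix.toLin'_apply, tvG_mulVec]
  rw [sympTransvection, Matrix.add_mulVec, Matrix.one_mulVec, Matrix.smul_mulVec,
    Matrix.vecMulVec_mulVec, sympForm, dotProduct_comm]
  simp [smul_smul, mul_comm]

lemma tvG_inv (v : Fin m ⊕ Fin m → F) (c : F) : (tvG v c)⁻¹ = tvG v (-c) := by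
  rw [inv_eq_iff_mul_eq_one]
  apply gl_ext
  intro x
  rw [Units.val_mul, ← Matrix.mulVec_mulVec, tvG_mulVec, tvG_mulVec, Units.val_one,
    Matrix.one_mulVec, sf_add_left, sf_smul_left, sf_self, mul_zero, add_zero, add_assoc,
    ← add_smul]
  simp

lemma tvG_mul (v : Fin m ⊕ Fin m → F) (c d : F) : tvG v c * tvG v d = tvG v (c + d) := by
  apply gl_ext
  intro x
  rw [Units.val_mul, ← Matrix.mulVec_mulVec, tvG_mulVec, tvG_mulVec, tvG_mulVec,
    sf_add_left, sf_smul_left, sf_self, mul_zero, add_zero, add_assoc, ← add_smul]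
  congr 2
  ring

lemma tvG_zero (v : Fin m ⊕ Fin m → F) : tvG v (0 : F) = 1 := by
  apply gl_ext
  intro x
  rw [tvG_mulVec]; simp

lemma tvG_pow (v : Fin m ⊕ Fin m → F) (c : F) (n : ℕ) : tvG v c ^ n = tvG v (n * c) := by
  induction n with
  | zero => simp [tvG_zero]
  | succ n ih => rw [pow_succ, ih, tvG_mul]; congr 1; push_cast; ring

/-- conjugation of a transvection by an isometry -/
lemma tvG_conj {g : GL (Fin m ⊕ Fin m) F} (hg : g ∈ spGL m F) (v : Fin m ⊕ Fin m → F) (c : F) :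
    g * tvG v c * g⁻¹ = tvG ((g : Matrix _ _ F) *ᵥ v) c := by
  apply gl_ext
  intro x
  have hx : x = (g : Matrix (Fin m ⊕ Fin m) (Fin m ⊕ Fin m) F) *ᵥ
      (((g⁻¹ : GL (Fin m ⊕ Fin m) F) : Matrix (Fin m ⊕ Fin m) (Fin m ⊕ Fin m) F) *ᵥ x) := by
    rw [Matrix.mulVec_mulVec, ← Units.val_mul, mul_inv_cancel, Units.val_one, Matrix.one_mulVec]
  rw [Units.val_mul, Units.val_mul, ← Matrix.mulVec_mulVec, ← Matrix.mulVec_mulVec, tvG_mulVec,
    tvG_mulVec, Matrix.mulVec_add, Matrix.mulVec_smul, ← hx]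
  congr 3
  conv_rhs => rw [hx]
  rw [mem_spGL.1 hg]

/-- **`Sp` is generated by the transvections.** -/
theorem spGL_le_of_tvG (M : Subgroup (GL (Fin m ⊕ Fin m) F))
    (h : ∀ (v : Fin m ⊕ Fin m → F) (c : F), tvG v c ∈ M) : spGL m F ≤ M := by
  intro g hg
  have key := mem_of_isIsom (sympB_isAlt (F := F) m) (sympB_nondegenerate m)
    (M.map (glEquiv _ F).toMonoidHom) (fun v c => ⟨tvG v c, h v c, by
      simp [tvG]⟩) (glEquiv _ F g) ((mem_spGL_iff m g).1 hg)
  obtain ⟨g', hg', hgg⟩ := key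
  have : g' = g := (glEquiv _ F).injective hgg
  exact this ▸ hg'

/-- To show `¬ Sp ≤ M` exhibit a transvection outside `M`. -/
theorem not_le_of_tvG {M : Subgroup (GL (Fin m ⊕ Fin m) F)} (v : Fin m ⊕ Fin m → F) (c : F)
    (h : tvG v c ∉ M) : ¬ spGL m F ≤ M := fun hle => h (hle (tvG_mem v c))

/-! ### maximality -/

/-- [N0] -/
theorem eq_inf_of_maximal {G : Type*} [Group G] {I H M : Subgroup G} (hH : IsMaximalIn I H)
    (hHM : H ≤ M) (hM : ¬ I ≤ M) : H = M ⊓ I := by
  rcases hH.2 (M ⊓ I) (le_inf hHM hH.1.le) inf_le_right with h | h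
  · exact h.symm
  · exact absurd (h ▸ inf_le_left) hM

end Cfsg.Agent.Lib.Helper94.SpRow
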