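import Cfsg.Agent.Lib.Helper94.SpRow.Base

/-!
Rows of the symplectic campaign, wave 4 (`S5789`: the geometric subgroups of `Sp_4(q)`, `q` even, are
maximal): the unipotent elements `U3 u p x y z = 1 + x u⊗u + y (u⊗p + p⊗u) + z p⊗p` attached to a totally
isotropic pair `u, p`, where `(a⊗b) w = f(w, b) a`.
-/

set_option autoImplicit false
set_option linter.unusedSectionVars false

namespace Cfsg.Agent.Lib.Helper94.SpRow

open Cfsg Cfsg.Geo Matrix
open scoped MatrixGroups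

variable {F : Type*} [Field F] {m : ℕ}

/-- `1 + x u⊗u + y (u⊗p + p⊗u) + z p⊗p` (as a product of three transvections) -/
noncomputable def U3 (u p : Fin m ⊕ Fin m → F) (x y z : F) : GL (Fin m ⊕ Fin m) F :=
  tvG u (x - y) * tvG p (z - y) * tvG (u + p) y

lemma U3_mem (u p : Fin m ⊕ Fin m → F) (x y z : F) : U3 u p x y z ∈ spGL m F :=
  mul_mem (mul_mem (tvG_mem _ _) (tvG_mem _ _)) (tvG_mem _ _)

lemma U3_mulVec {u p : Fin m ⊕ Fin m → F} (h : sympForm m F u p = 0) (x y z : F)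
    (w : Fin m ⊕ Fin m → F) :
    ((U3 u p x y z : GL (Fin m ⊕ Fin m) F) : Matrix _ _ F) *ᵥ w =
      w + (x * sympForm m F w u + y * sympForm m F w p) • u +
        (y * sympForm m F w u + z * sympForm m F w p) • p := by
  have h' : sympForm m F p u = 0 := by rw [sf_swap, h, neg_zero]
  unfold U3
  rw [Units.val_mul, Units.val_mul, ← Matrix.mulVec_mulVec, ← Matrix.mulVec_mulVec, tvG_mulVec,
    tvG_mulVec, tvG_mulVec]
  simp only [sf_add_left, sf_add_right, sf_smul_left, sf_self, h, h', mul_zero, add_zero, zero_add]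
  module

lemma U3_conj {g : GL (Fin m ⊕ Fin m) F} (hg : g ∈ spGL m F) (u p : Fin m ⊕ Fin m → F) (x y z : F) :
    g * U3 u p x y z * g⁻¹ = U3 ((g : Matrix _ _ F) *ᵥ u) ((g : Matrix _ _ F) *ᵥ p) x y z := by
  unfold U3
  rw [← tvG_conj hg, ← tvG_conj hg, ← Matrix.mulVec_add, ← tvG_conj hg]
  group

lemma U3_mul {u p : Fin m ⊕ Fin m → F} (h : sympForm m F u p = 0) (x y z x' y' z' : F) :
    U3 u p x y z * U3 u p x' y' z' = U3 u p (x + x') (y + y') (z + z') := by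
  have h' : sympForm m F p u = 0 := by rw [sf_swap, h, neg_zero]
  apply gl_ext
  intro w
  rw [Units.val_mul, ← Matrix.mulVec_mulVec, U3_mulVec h, U3_mulVec h, U3_mulVec h]
  simp only [sf_add_left, sf_smul_left, sf_self, h, h', mul_zero, add_zero]
  module

lemma U3_zero (u p : Fin m ⊕ Fin m → F) : U3 u p 0 0 0 = 1 := by
  unfold U3
  simp [tvG_zero]

lemma U3_inv {u p : Fin m ⊕ Fin m → F} (h : sympForm m F u p = 0) (x y z : F) :
    (U3 u p x y z)⁻¹ = U3 u p (-x) (-y) (-z) := by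
  rw [inv_eq_iff_mul_eq_one, U3_mul h]
  simp [U3_zero]

lemma U3_tv (u p : Fin m ⊕ Fin m → F) (x : F) : U3 u p x 0 0 = tvG u x := by
  unfold U3
  simp [tvG_zero]

/-- the standard basis vectors of `F^4` -/
def e1 (F : Type*) [Field F] : Fin 2 ⊕ Fin 2 → F := Pi.single (Sum.inl 0) 1
def e2 (F : Type*) [Field F] : Fin 2 ⊕ Fin 2 → F := Pi.single (Sum.inl 1) 1
def f1 (F : Type*) [Field F] : Fin 2 ⊕ Fin 2 → F := Pi.single (Sum.inr 0) 1
def f2 (F : Type*) [Field F] : Fin 2 ⊕ Fin 2 → F := Pi.single (Sum.inr 1) 1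

/-- the value of the form in coordinates -/
lemma sf_four (u v : Fin 2 ⊕ Fin 2 → F) : sympForm 2 F u v =
    u (Sum.inr 0) * v (Sum.inl 0) + u (Sum.inr 1) * v (Sum.inl 1)
      - u (Sum.inl 0) * v (Sum.inr 0) - u (Sum.inl 1) * v (Sum.inr 1) := by
  simp [sympForm, Matrix.J, dotProduct, Matrix.mulVec, Fintype.sum_sum_type, Fin.sum_univ_two,
    Matrix.fromBlocks, Matrix.one_apply, Matrix.of_apply]
  ring

/-- the data of a quadratic field of matrices, self-adjoint and `f(k v, v) = 0`, in characteristic 2 -/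
structure KD (K : Subalgebra F (Matrix (Fin 2 ⊕ Fin 2) (Fin 2 ⊕ Fin 2) F)) where
  θ : Matrix (Fin 2 ⊕ Fin 2) (Fin 2 ⊕ Fin 2) F
  a : F
  b : F
  mem : θ ∈ K
  span : ∀ k ∈ K, ∃ x y : F, k = x • (1 : Matrix (Fin 2 ⊕ Fin 2) (Fin 2 ⊕ Fin 2) F) + y • θ
  sq : θ * θ = a • θ + b • (1 : Matrix (Fin 2 ⊕ Fin 2) (Fin 2 ⊕ Fin 2) F)
  aniso : ∀ y z : F, y ^ 2 + a * y * z + b * z ^ 2 = 0 → y = 0 ∧ z = 0
  adj : ∀ u v, sympForm 2 F (θ *ᵥ u) v = sympForm 2 F u (θ *ᵥ v)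
  alt : ∀ v, sympForm 2 F (θ *ᵥ v) v = 0

/-- the parameters of the elements of `G` in the unipotent radical of the line `⟨e1, e2⟩` -/
def UU (G : Subgroup (GL (Fin 2 ⊕ Fin 2) F)) (x y z : F) : Prop := U3 (e1 F) (e2 F) x y z ∈ G

/-- the set `L'` -/
def LL (G : Subgroup (GL (Fin 2 ⊕ Fin 2) F)) (x : F) : Prop := UU G x x 0

end Cfsg.Agent.Lib.Helper94.SpRow
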