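import Cfsg.Agent.Lib.Helper94.SpRow.Base
import Cfsg.Agent.Lib.Helper94.TensF3

/-!
Rows of the symplectic campaign, wave 3 (`Sp_8`): vocabulary for the proof that
`Sp_2 ⊗ O_4^+` is not maximal in `Sp_8(q)` (it lies in the stabiliser of the set of pure
`2 ⊗ 2 ⊗ 2` tensors).
-/

set_option autoImplicit false
set_option linter.unusedSectionVars false

namespace Cfsg.Agent.Lib.Helper94.SpRow

open Cfsg Cfsg.Geo Matrix
open scoped MatrixGroups
open Cfsg.Agent.Lib.Helper94.Tens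

variable {F : Type*} [Field F]

/-- the standard alternating Gram matrix `!![0,1;-1,0]` as a function -/
def om (F : Type*) [Field F] (i j : Fin 2) : F :=
  if i = 0 ∧ j = 1 then 1 else if i = 1 ∧ j = 0 then -1 else 0

@[simp] lemma om_00 : om F 0 0 = 0 := by simp [om]
@[simp] lemma om_01 : om F 0 1 = 1 := by simp [om]
@[simp] lemma om_10 : om F 1 0 = -1 := by simp [om]
@[simp] lemma om_11 : om F 1 1 = 0 := by simp [om]

/-- triple indices -/
abbrev I3 := Fin 2 × Fin 2 × Fin 2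

/-- coordinates of the pure tensors `a ⊗ b ⊗ c` -/
def Pure3 (F : Type*) [Field F] : Set (I3 → F) :=
  {x | ∃ a b c : Fin 2 → F, ∀ p : I3, x p = a p.1 * (b p.2.1 * c p.2.2)}

/-- the form `om ⊗ om ⊗ om` -/
def g3 (x y : I3 → F) : F :=
  ∑ p : I3, ∑ q : I3, x p * y q * (om F p.1 q.1 * (om F p.2.1 q.2.1 * om F p.2.2 q.2.2))

/-- the exchange of the first two indices -/
def sw (p : I3) : I3 := (p.2.1, p.1, p.2.2)

lemma sw_sw (p : I3) : sw (sw p) = p := rfl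

/-- the stabiliser of a set of vectors -/
def stabSet {ι : Type} [Fintype ι] [DecidableEq ι] (S : Set (ι → F)) : Subgroup (GL ι F) where
  carrier := {g | ∀ v, (g : Matrix ι ι F) *ᵥ v ∈ S ↔ v ∈ S}
  one_mem' := by intro v; simp
  mul_mem' := by
    intro g h hg hh v
    rw [Units.val_mul, ← Matrix.mulVec_mulVec, hg, hh]
  inv_mem' := by
    intro g hg v
    rw [← hg, Matrix.mulVec_mulVec, ← Units.val_mul, mul_inv_cancel, Units.val_one,
      Matrix.one_mulVec]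

lemma mem_stabSet {ι : Type} [Fintype ι] [DecidableEq ι] (S : Set (ι → F)) (g : GL ι F) :
    g ∈ stabSet S ↔ ∀ v, (g : Matrix ι ι F) *ᵥ v ∈ S ↔ v ∈ S := Iff.rfl

/-- a `2 ⊗ 2 ⊗ 2` frame refining the tensor decomposition `(e, P)` of `F^8 = F^2 ⊗ F^4`, adapted to the
symmetric form `f₂` on `F^4` -/
structure Fr (e : (Fin 4 ⊕ Fin 4) ≃ Fin 2 × Fin 4) (P : GL (Fin 4 ⊕ Fin 4) F)
    (f₂ : (Fin 4 → F) → (Fin 4 → F) → F) where
  Φ : (I3 → F) ≃ₗ[F] (Fin 4 ⊕ Fin 4 → F)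
  W : (Fin 2 × Fin 2 → F) ≃ₗ[F] (Fin 4 → F)
  κ : F
  hκ : κ ≠ 0
  form : ∀ x y, sympForm 4 F (Φ x) (Φ y) = κ * g3 x y
  pure : ∀ (a : Fin 2 → F) (y : Fin 2 × Fin 2 → F), Φ (fun p => a p.1 * y p.2) = pt e P a (W y)
  quad : ∀ y, f₂ (W y) (W y) = 2 * (y (0, 0) * y (1, 1) - y (0, 1) * y (1, 0))

end Cfsg.Agent.Lib.Helper94.SpRow
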