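import Cfsg.Agent.Lib.Helper94.SpRow.Defs4
import Cfsg.Agent.Lib.Helper94.QuadWrap
import Cfsg.Agent.Lib.Helper72.SpRow.N3
import Cfsg.Agent.Lib.Helper65.SpRow.N5
import Cfsg.Agent.Lib.Helper67.SpRow.A5
import Cfsg.Agent.Lib.Helper64.SpRow.QK1
import Cfsg.Agent.Lib.Helper64.SpRow.QK2
import Cfsg.Agent.Lib.Helper64.SpRow.QK3
import Cfsg.Agent.Lib.Helper65.SpRow.QK4
import Cfsg.Agent.Lib.Helper97.SpRow.QK0
import Cfsg.Agent.Lib.Helper97.SpRow.QK5
import Cfsg.Agent.Lib.Helper97.SpRow.QCJ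
import Cfsg.Agent.Lib.Helper96.SpRow.QK6
import Cfsg.Agent.Lib.Helper96.SpRow.QK8
import Cfsg.Agent.Lib.Helper96.SpRow.QP4
import Cfsg.Agent.Lib.Helper70.SpRow.QA1
import Cfsg.Agent.Lib.Helper70.SpRow.QA2
import Cfsg.Agent.Lib.Helper70.SpRow.QTR
import Cfsg.Agent.Lib.Helper70.SpRow.QP7core
import Cfsg.Agent.Lib.Helper1.SpRow.QP2
import Cfsg.Agent.Lib.Helper1.SpRow.QP3
import Cfsg.Agent.Lib.Helper1.SpRow.QP5
import Cfsg.Agent.Lib.Helper1.SpRow.QP6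
import Cfsg.Agent.Lib.Helper70.SpRow.QP8

set_option autoImplicit false
set_option linter.unusedSectionVars false

namespace Cfsg.Agent.Lib.Helper94.SpRow

open Cfsg Cfsg.Geo Matrix
open scoped MatrixGroups

variable {F : Type*} [Field F]

/-! ### part 3: the normaliser of a quadratic field -/

lemma two_eq_zero_of_not_odd [Fintype F] (heven : ¬ Odd (Fintype.card F)) : (2 : F) = 0 := by
  have h := Cfsg.Agent.Lib.Helper94.charTwo_of_not_odd heven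
  have := ringChar.Nat.cast_ringChar (R := F)
  rw [h] at this
  exact_mod_cast this

lemma exists_ne_ne [Fintype F] (h3 : 3 ≤ Fintype.card F) (s t : F) : ∃ r : F, r ≠ s ∧ r ≠ t := by
  classical
  by_contra hcon
  push Not at hcon
  have : Fintype.card F ≤ ({s, t} : Finset F).card := by
    rw [← Finset.card_univ]
    refine Finset.card_le_card fun x _ => ?_
    by_cases hx : x = s
    · simp [hx]
    · simp [hcon x hx]
  have h2 : ({s, t} : Finset F).card ≤ 2 := Finset.card_le_two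
  omega

/-- the normaliser of a self-adjoint quadratic field is maximal in `Sp_4(q)`, `q ≥ 4` even -/
theorem field_max [Fintype F] (heven : ¬ Odd (Fintype.card F)) (h4 : 4 ≤ Fintype.card F)
    (K : Subalgebra F (Matrix (Fin 2 ⊕ Fin 2) (Fin 2 ⊕ Fin 2) F))
    (hK : IsFieldSubalgebra 2 K) (hsa : IsSelfAdjointFor (sympForm 2 F) K)
    (halt : ∀ k ∈ K, ∀ v : Fin 2 ⊕ Fin 2 → F, sympForm 2 F (k *ᵥ v) v = 0) :
    IsMaximalIn (spGL 2 F) (subalgebraNormalizer K ⊓ spGL 2 F) := by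
  have h2 := two_eq_zero_of_not_odd heven
  have h3 := exists_ne_ne (F := F) (by omega)
  obtain ⟨D⟩ := Cfsg.Agent.Lib.Helper64.SpRow.exists_KD h2 K hK hsa halt
  refine ⟨lt_of_le_not_ge inf_le_right fun h =>
    Cfsg.Agent.Lib.Helper72.SpRow.sp_not_le_field (le_refl 2) (le_refl 2) K hK (h.trans inf_le_left),
    fun M hHM hMS => ?_⟩
  by_cases hM : M ≤ subalgebraNormalizer K ⊓ spGL 2 F
  · exact Or.inl (le_antisymm hM hHM)
  right
  obtain ⟨g, hgM, hgH⟩ := SetLike.not_le_iff_exists.1 hM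
  have hgS : g ∈ spGL 2 F := hMS hgM
  have hgN : g ∉ subalgebraNormalizer K := fun h => hgH ⟨h, hgS⟩
  obtain ⟨v, hv, hmv⟩ := Cfsg.Agent.Lib.Helper64.SpRow.exists_moved h2 D g hgN
  have hinj : ∀ x : Fin 2 ⊕ Fin 2 → F,
      (g : Matrix (Fin 2 ⊕ Fin 2) (Fin 2 ⊕ Fin 2) F) *ᵥ x = 0 → x = 0 := by
    intro x hx
    have := congrArg (fun y => ((g⁻¹ : GL (Fin 2 ⊕ Fin 2) F) :
      Matrix (Fin 2 ⊕ Fin 2) (Fin 2 ⊕ Fin 2) F) *ᵥ y) hx
    simpa [Matrix.mulVec_mulVec, ← Units.val_mul] using this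
  have hβ : sympForm 2 F ((g : Matrix _ _ F) *ᵥ (D.θ *ᵥ v)) (D.θ *ᵥ ((g : Matrix _ _ F) *ᵥ v)) ≠ 0 := by
    intro h0
    apply hmv
    refine Cfsg.Agent.Lib.Helper97.SpRow.lagr _ _ _ ?_ ?_ (D.alt _) ?_
    · rw [mem_spGL.1 hgS, sf_swap, D.alt, neg_zero]
    · intro x y hxy
      rw [← Matrix.mulVec_smul, ← Matrix.mulVec_smul, ← Matrix.mulVec_add] at hxy
      exact Cfsg.Agent.Lib.Helper97.SpRow.KD_ind h2 D hv x y (hinj _ hxy)
    · rw [sf_swap, h0, neg_zero]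
  have hroot := Cfsg.Agent.Lib.Helper65.SpRow.full_root h2 h3 D M hHM g hgM hgS v hβ
  have hu : (g : Matrix (Fin 2 ⊕ Fin 2) (Fin 2 ⊕ Fin 2) F) *ᵥ v ≠ 0 := fun h => hv (hinj _ h)
  have step : ∀ u' : Fin 2 ⊕ Fin 2 → F, u' ≠ 0 → (∀ c, tvG u' c ∈ M) → ∀ w : Fin 2 ⊕ Fin 2 → F,
      (¬ ∃ x y : F, w = x • u' + y • (D.θ *ᵥ u')) → ∀ c, tvG w c ∈ M := by
    intro u' hu' hr w hw c
    obtain ⟨y, z, hyz⟩ := Cfsg.Agent.Lib.Helper96.SpRow.ktv_trans h2 D u' w hu' hw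
    have hh : U3 (w + u') (D.θ *ᵥ (w + u')) (D.a * y + D.b * z) y z ∈ M :=
      hHM ⟨Cfsg.Agent.Lib.Helper64.SpRow.ktv_mem h2 D _ y z, U3_mem _ _ _ _ _⟩
    have := tvG_conj (U3_mem (w + u') (D.θ *ᵥ (w + u')) (D.a * y + D.b * z) y z) u' c
    rw [hyz] at this
    rw [← this]
    exact mul_mem (mul_mem hh (hr c)) (inv_mem hh)
  refine le_antisymm hMS (spGL_le_of_tvG M fun w c => ?_)
  by_cases hw : w = 0
  · subst hw
    have : tvG (0 : Fin 2 ⊕ Fin 2 → F) c = 1 := by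
      apply gl_ext
      intro x
      rw [tvG_mulVec]; simp
    rw [this]; exact one_mem _
  obtain ⟨w', hw', h1, h2'⟩ := Cfsg.Agent.Lib.Helper96.SpRow.exists_outside h2 D _ w hu hw
  exact step w' hw' (step _ hu hroot w' h1) w h2' c

/-! ### part 4: subfield groups -/

/-- the standard subfield group is maximal -/
theorem sub_std_max [Fintype F] (heven : ¬ Odd (Fintype.card F)) (h4 : 4 ≤ Fintype.card F)
    (F₀ : Subfield F) (r : ℕ) (hr : r.Prime) (hc : Fintype.card F = Nat.card F₀ ^ r) :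
    IsMaximalIn (spGL 2 F) (subfieldSubgroup F₀ (1 : GL (Fin 2 ⊕ Fin 2) F) ⊓ spGL 2 F) := by
  have h2 := two_eq_zero_of_not_odd heven
  have h3 : ∃ c : F, c + c ^ 2 ≠ 0 := by
    obtain ⟨c, hc0, hc1⟩ := exists_ne_ne (F := F) (by omega) 0 1
    refine ⟨c, fun h => ?_⟩
    have h5 : c * (c + 1) = 0 := by linear_combination h
    rcases mul_eq_zero.1 h5 with h6 | h6
    · exact hc0 h6
    · apply hc1
      linear_combination h6 - h2
  refine ⟨lt_of_le_not_ge inf_le_right fun h =>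
    Cfsg.Agent.Lib.Helper65.SpRow.sp_not_le_subfield (by norm_num) F₀
      (Cfsg.Agent.Lib.Helper67.SpRow.subfield_ne_top hr hc) 1 (h.trans inf_le_left),
    fun M hHM hMS => ?_⟩
  have he : sympForm 2 F (e1 F) (e2 F) = 0 := by
    rw [sf_four]; simp [e1, e2]
  have hrat1 : ∀ i, e1 F i ∈ F₀ := by
    intro i
    unfold e1
    by_cases h : i = Sum.inl 0
    · subst h; simp [F₀.one_mem]
    · rw [Pi.single_eq_of_ne h]; exact F₀.zero_mem
  have hrat2 : ∀ i, e2 F i ∈ F₀ := by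
    intro i
    unfold e2
    by_cases h : i = Sum.inl 1
    · subst h; simp [F₀.one_mem]
    · rw [Pi.single_eq_of_ne h]; exact F₀.zero_mem
  rcases Cfsg.Agent.Lib.Helper96.SpRow.dichotomy h2 F₀ r hr hc (LL M)
    (fun x hx => hHM (Cfsg.Agent.Lib.Helper70.SpRow.U3_rat F₀ _ _ hrat1 hrat2 x x 0 hx hx F₀.zero_mem))
    (fun x y hx hy => by
      have := mul_mem hx hy
      rw [U3_mul he, add_zero] at this
      exact this)
    (fun a c ha hc' => (Cfsg.Agent.Lib.Helper1.SpRow.UU_struct h2 F₀ M hHM (Cfsg.Agent.Lib.Helper1.SpRow.LL_comm h2 F₀ M hHM ha hc')).2.1) with h | h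
  · left
    exact le_antisymm (le_inf (Cfsg.Agent.Lib.Helper1.SpRow.le_of_LL_rat h2 F₀ M hHM hMS h) hMS) hHM
  · right
    exact le_antisymm hMS (Cfsg.Agent.Lib.Helper70.SpRow.top_of_LL_all_core h2 h3 F₀ M hHM hMS h
      (fun a c ha hc => Cfsg.Agent.Lib.Helper1.SpRow.LL_comm h2 F₀ M hHM ha hc))

/-- subfield groups are maximal in `Sp_4(q)`, `q ≥ 4` even -/
theorem sub_max [Fintype F] (heven : ¬ Odd (Fintype.card F)) (h4 : 4 ≤ Fintype.card F)
    (F₀ : Subfield F) (r : ℕ) (P : GL (Fin 2 ⊕ Fin 2) F) (ζ : F) (hr : r.Prime)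
    (hc : Fintype.card F = Nat.card F₀ ^ r) (hζ : ζ ≠ 0)
    (hP : IsFormRationalStructure (sympForm 2 F) F₀ ζ P) :
    IsMaximalIn (spGL 2 F) (subfieldSubgroup F₀ P ⊓ spGL 2 F) := by
  have h2 := two_eq_zero_of_not_odd heven
  obtain ⟨P', hP', h⟩ := Cfsg.Agent.Lib.Helper70.SpRow.subfield_normal_form h2 F₀ P ζ hζ hP
  rw [h]
  exact Cfsg.Agent.Lib.Helper97.SpRow.isMaximalIn_conj _ _ P' hP' (sub_std_max heven h4 F₀ r hr hc)

end Cfsg.Agent.Lib.Helper94.SpRow
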