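import Cfsg.Agent.Lib.Helper94.SpRow.Defs3
import Cfsg.Agent.Lib.Helper11.SpRow.HB
import Cfsg.Agent.Lib.Helper11.SpRow.FR
import Cfsg.Agent.Lib.Helper11.SpRow.TS
import Cfsg.Agent.Lib.Helper12.SpRow.W3

/-!
`Sp_2 ⊗ O_4^+` is not maximal in `Sp_8(q)`, `q` odd: assembly of the wave 3 pieces.
-/

set_option autoImplicit false
set_option linter.unusedSectionVars false

namespace Cfsg.Agent.Lib.Helper94.SpRow

open Cfsg Cfsg.Geo Matrix
open scoped MatrixGroups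
open Cfsg.Agent.Lib.Helper94.Tens

variable {F : Type*} [Field F]

/-- `Sp_2 ⊗ O_4^+` lies in the stabiliser of the pure `2 ⊗ 2 ⊗ 2` tensors -/
theorem tensor_plus_not_maximal (h2 : (2 : F) ≠ 0) (e : (Fin 4 ⊕ Fin 4) ≃ Fin 2 × Fin 4)
    (P : GL (Fin 4 ⊕ Fin 4) F)
    (f₁ : (Fin 2 → F) → (Fin 2 → F) → F) (f₂ : (Fin 4 → F) → (Fin 4 → F) → F)
    (h1 : IsSymplecticForm f₁) (hs2 : IsSymmetricForm f₂)
    (hplus : IsPlusTypeOn (fun v : Fin 4 → F => f₂ v v) ⊤)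
    (hs : IsTensorFormStructure id (sympForm 4 F) f₁ f₂ e P) :
    ¬ IsMaximalIn (spGL 4 F) (tensorProductSubgroup 2 4 e P ⊓ spGL 4 F) := by
  intro hmax
  obtain ⟨w, hw⟩ := Cfsg.Agent.Lib.Helper11.SpRow.plus_basis h2 f₂ hs2 hplus
  obtain ⟨D⟩ := Cfsg.Agent.Lib.Helper11.SpRow.exists_frame e P f₁ f₂ h1 hs2 hs w hw
  obtain ⟨τ, hτI, hτ⟩ := Cfsg.Agent.Lib.Helper12.SpRow.exists_tau e P f₂ D
  have hτT := Cfsg.Agent.Lib.Helper12.SpRow.tau_not_mem e P f₂ D τ hτ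
  obtain ⟨t, htI, x₀, hx₀, ht⟩ := Cfsg.Agent.Lib.Helper12.SpRow.exists_tv_not_pure e P f₂ D
  set S : Set (Fin 4 ⊕ Fin 4 → F) := D.Φ '' Pure3 F with hS
  have hle : tensorProductSubgroup 2 4 e P ⊓ spGL 4 F ≤ stabSet S ⊓ spGL 4 F := by
    refine le_inf ?_ inf_le_right
    intro g hg
    rw [mem_stabSet]
    intro v
    constructor
    · rintro ⟨x, hx, hxv⟩
      obtain ⟨x', hx', h⟩ := Cfsg.Agent.Lib.Helper11.SpRow.tensor_maps_pure h2 e P f₁ f₂ h1 hs2 hs D g⁻¹ (inv_mem hg) x hx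
      refine ⟨x', hx', ?_⟩
      rw [← h, hxv, Matrix.mulVec_mulVec, ← Units.val_mul, inv_mul_cancel, Units.val_one,
        Matrix.one_mulVec]
    · rintro ⟨x, hx, rfl⟩
      obtain ⟨x', hx', h⟩ := Cfsg.Agent.Lib.Helper11.SpRow.tensor_maps_pure h2 e P f₁ f₂ h1 hs2 hs D g hg x hx
      exact ⟨x', hx', h.symm⟩
  have hsw : ∀ x : I3 → F, x ∈ Pure3 F → x ∘ sw ∈ Pure3 F := by
    rintro x ⟨a, b, c, h⟩
    refine ⟨b, a, c, fun p => ?_⟩
    simp only [Function.comp, sw, h]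
    ring
  have hτS : τ ∈ stabSet S := by
    rw [mem_stabSet]
    intro v
    obtain ⟨y, rfl⟩ := D.Φ.surjective v
    rw [hτ]
    constructor
    · rintro ⟨x, hx, hxv⟩
      have : x = y ∘ sw := D.Φ.injective hxv
      refine ⟨y, ?_, rfl⟩
      have h3 := hsw x hx
      rw [this] at h3
      have h4 : (y ∘ sw) ∘ sw = y := by funext p; rfl
      rwa [h4] at h3
    · rintro ⟨x, hx, hxv⟩
      have : x = y := D.Φ.injective hxv
      subst this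
      exact ⟨_, hsw x hx, rfl⟩
  rcases hmax.2 _ hle inf_le_right with h | h
  · have : τ ∈ stabSet S ⊓ spGL 4 F := ⟨hτS, hτI⟩
    rw [h] at this
    exact hτT this.1
  · have : t ∈ stabSet S ⊓ spGL 4 F := by rw [h]; exact htI
    have h5 := ((mem_stabSet S t).1 this.1 (D.Φ x₀)).2 ⟨x₀, hx₀, rfl⟩
    obtain ⟨x', hx', h6⟩ := h5
    exact ht x' hx' h6.symm

end Cfsg.Agent.Lib.Helper94.SpRow
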