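import Cfsg.Agent.Lib.Helper94.SpRow.Base
import Cfsg.Agent.Lib.Helper60.Sp.Main
import Cfsg.Agent.Lib.Helper55.Asch.DecCore
import Cfsg.Agent.Lib.Helper55.Asch.L9e
import Cfsg.Agent.Lib.Helper67.SpRow.A1
import Cfsg.Agent.Lib.Helper65.SpRow.A3
import Cfsg.Agent.Lib.Helper67.SpRow.A5
import Cfsg.Agent.Lib.Helper99.SpRow.E4
import Cfsg.Agent.Lib.Helper67.SpRow.N1
import Cfsg.Agent.Lib.Helper67.SpRow.N2
import Cfsg.Agent.Lib.Helper72.SpRow.N3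
import Cfsg.Agent.Lib.Helper72.SpRow.N4
import Cfsg.Agent.Lib.Helper65.SpRow.N5
import Cfsg.Agent.Lib.Helper99.SpRow.N7
import Cfsg.Agent.Lib.Helper67.SpRow.N8
import Cfsg.Agent.Lib.Helper11.Sp.E1f
import Cfsg.Agent.Lib.Helper86.Sp.E3b

set_option autoImplicit false

/-! # Rows of the symplectic campaign: the generic refined list for a maximal subgroup -/

namespace Cfsg.Agent.Lib.Helper94.SpRow

open Cfsg Cfsg.Geo Matrix
open scoped MatrixGroups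

variable {F : Type*} [Field F] {m : ℕ}

/-- M -/
theorem mainSp [Fintype F] (hm : 2 ≤ m) (H : Subgroup (GL (Fin m ⊕ Fin m) F))
    (hH : H ≤ spGL m F) : ClsSp m H ∨ InSymplecticResidualClass H := by
  have hcard : Fintype.card (Fin m ⊕ Fin m) = 2 * m := by
    rw [Fintype.card_sum, Fintype.card_fin]; ring
  have hfix : FixesForm (matrixSet H) (sympForm m F) := by
    rintro _ ⟨g, hg, rfl⟩ u v
    exact mem_spGL.1 (hH hg) u v
  rcases Cfsg.Agent.Lib.Helper60.Sp.sp_main (by rw [hcard]; omega) sf_isSymplecticForm H hfix with h | h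
  swap
  · exact Or.inr h
  left
  rcases h with ⟨W, h0, h1, h⟩ | ⟨W, h0, h1, h2, h⟩ | ⟨t, k, D, hD, h⟩ | ⟨k, D, ho, hD, hts, h⟩ |
    ⟨F₀, r, P, ζ, hr, hc, hζ, hs, h⟩ | ⟨R, p, k, h1, h2, h3, h4, h5, h6, h7, h8, h9, h10, h⟩ |
    ⟨Q, ho, hQ, hp, h⟩ | ⟨r, K, hr, hK, hs, ha, h⟩ | ⟨K, ho, hK, hc, hn, h⟩ |
    ⟨n₁, n₂, e, P, f₁, f₂, ho, h3, h1, h2, hs, h⟩ | ⟨k, t, e, P, f₁, ho, ht, h3, hx, h1, hs, h⟩
  · exact Or.inl ⟨W, h0, h1, h⟩
  · exact Or.inr (Or.inl ⟨W, h0, h1, by rw [hcard] at h2; omega, h⟩)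
  · exact Or.inr (Or.inr (Or.inl ⟨t, k, D, hD, h⟩))
  · have hk : k = m := by
      have := Cfsg.Agent.Lib.Helper55.Asch.card_of_decomp D hD
      rw [hcard] at this
      omega
    subst hk
    exact Or.inr (Or.inr (Or.inr (Or.inl ⟨D, ho, hD, hts, h⟩)))
  · exact Or.inr (Or.inr (Or.inr (Or.inr (Or.inl ⟨F₀, r, P, ζ, hr, hc, hζ, hs, h⟩))))
  · exact Or.inr (Or.inr (Or.inr (Or.inr (Or.inr (Or.inl
      ⟨R, p, k, h1, h2, h3, h4, h5, h6, h7, h8, h9, by rw [← hcard]; exact h10, h⟩)))))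
  · exact Or.inr (Or.inr (Or.inr (Or.inr (Or.inr (Or.inr (Or.inl ⟨Q, ho, hQ, hp, h⟩))))))
  · exact Or.inr (Or.inr (Or.inr (Or.inr (Or.inr (Or.inr (Or.inr (Or.inl
      ⟨r, K, hr, hK, hs, ha, h⟩)))))))
  · exact Or.inr (Or.inr (Or.inr (Or.inr (Or.inr (Or.inr (Or.inr (Or.inr (Or.inl
      ⟨K, ho, hK, hc, hn, h⟩))))))))
  · exact Or.inr (Or.inr (Or.inr (Or.inr (Or.inr (Or.inr (Or.inr (Or.inr (Or.inr (Or.inl
      ⟨n₁, n₂, e, P, f₁, f₂, ho, h3, h1, h2, hs, h⟩)))))))))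
  · exact Or.inr (Or.inr (Or.inr (Or.inr (Or.inr (Or.inr (Or.inr (Or.inr (Or.inr (Or.inr
      ⟨k, t, e, P, f₁, ho, ht, h3, hx, h1, hs, h⟩)))))))))

/-- REF: the generic refined list for a maximal subgroup -/
theorem refined [Fintype F] (hm : 2 ≤ m) (H : Subgroup (GL (Fin m ⊕ Fin m) F))
    (hH : IsMaximalIn (spGL m F) H) :
  (∃ W : Submodule F (Fin m ⊕ Fin m → F), W ≠ ⊥ ∧ IsTotallySingularFor (sympForm m F) W ∧
      H = subspaceStabilizer W ⊓ spGL m F) ∨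
  (∃ W : Submodule F (Fin m ⊕ Fin m → F), W ≠ ⊥ ∧ IsNondegenerateOn (sympForm m F) W ∧
      Module.finrank F W < m ∧ Even (Module.finrank F W) ∧ H = subspaceStabilizer W ⊓ spGL m F) ∨
  (∃ (t k : ℕ) (D : Fin t → Submodule F (Fin m ⊕ Fin m → F)),
      IsNondegenerateMDecomposition (sympForm m F) k D ∧ t * k = 2 * m ∧ Even k ∧
      (k = 2 → 3 ≤ Fintype.card F) ∧ H = decompositionStabilizer D ⊓ spGL m F) ∨
  (∃ (D : Fin 2 → Submodule F (Fin m ⊕ Fin m → F)), Odd (Fintype.card F) ∧ IsMDecomposition m D ∧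
      (∀ i, IsTotallySingularFor (sympForm m F) (D i)) ∧
      H = decompositionStabilizer D ⊓ spGL m F) ∨
  (∃ (F₀ : Subfield F) (r : ℕ) (P : GL (Fin m ⊕ Fin m) F) (ζ : F), r.Prime ∧
      Fintype.card F = Nat.card F₀ ^ r ∧ ζ ≠ 0 ∧
      IsFormRationalStructure (sympForm m F) F₀ ζ P ∧ H = subfieldSubgroup F₀ P ⊓ spGL m F) ∨
  (∃ (R : Subgroup (GL (Fin m ⊕ Fin m) F)) (p k : ℕ), IsSymplecticTypeGroup 2 R ∧
      ActsAbsolutelyIrreducibly (matrixSet R) ∧ R ≤ similarityGroup (sympForm m F) ∧ p.Prime ∧ Odd p ∧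
      Fintype.card F = p ∧
      Nat.card R = 2 ^ (1 + 2 * k) ∧ Nat.card (Subgroup.center R) = 2 ∧ IsOfMinusType k R ∧
      2 * m = 2 ^ k ∧ H = subgroupNormalizer R ⊓ spGL m F) ∨
  (∃ Q : (Fin m ⊕ Fin m → F) → F, ¬ Odd (Fintype.card F) ∧ IsNondegenerateQuadraticForm Q ∧
      (∀ u v, QuadraticMap.polar Q u v = sympForm m F u v) ∧
      H = quadSimilarityGroup Q ⊓ spGL m F) ∨
  (∃ (r : ℕ) (K : Subalgebra F (Matrix (Fin m ⊕ Fin m) (Fin m ⊕ Fin m) F)), r.Prime ∧ r ∣ m ∧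
      IsFieldSubalgebra r K ∧ IsSelfAdjointFor (sympForm m F) K ∧
      (∀ k ∈ K, ∀ v, sympForm m F (k *ᵥ v) v = 0) ∧ H = subalgebraNormalizer K ⊓ spGL m F) ∨
  (∃ K : Subalgebra F (Matrix (Fin m ⊕ Fin m) (Fin m ⊕ Fin m) F), Odd (Fintype.card F) ∧
      IsFieldSubalgebra 2 K ∧ IsAdjointClosedFor (sympForm m F) K ∧
      ¬ IsSelfAdjointFor (sympForm m F) K ∧ H = subalgebraNormalizer K ⊓ spGL m F) ∨
  (∃ (n₁ n₂ : ℕ) (e : (Fin m ⊕ Fin m) ≃ Fin n₁ × Fin n₂) (P : GL (Fin m ⊕ Fin m) F)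
      (f₁ : (Fin n₁ → F) → (Fin n₁ → F) → F) (f₂ : (Fin n₂ → F) → (Fin n₂ → F) → F),
      Odd (Fintype.card F) ∧ 3 ≤ n₂ ∧ Even n₁ ∧ n₁ * n₂ = 2 * m ∧ (n₂ = 3 → 5 ≤ Fintype.card F) ∧
      IsSymplecticForm f₁ ∧ IsSymmetricForm f₂ ∧
      IsTensorFormStructure id (sympForm m F) f₁ f₂ e P ∧
      H = tensorProductSubgroup n₁ n₂ e P ⊓ spGL m F) ∨
  (∃ (k t : ℕ) (e : (Fin m ⊕ Fin m) ≃ (Fin t → Fin k)) (P : GL (Fin m ⊕ Fin m) F)
      (f₁ : (Fin k → F) → (Fin k → F) → F),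
      Odd (Fintype.card F) ∧ Odd t ∧ 3 ≤ t ∧ k ^ t = 2 * m ∧ ¬ (Fintype.card F = 3 ∧ k = 2) ∧
      IsSymplecticForm f₁ ∧ IsTensorPowerFormStructure id (sympForm m F) f₁ e P ∧
      H = tensorWreathSubgroup k t e P ⊓ spGL m F) ∨
  InSymplecticResidualClass H := by
  have hcard : Fintype.card (Fin m ⊕ Fin m) = 2 * m := by
    rw [Fintype.card_sum, Fintype.card_fin]; ring
  have hq2 : 2 ≤ Fintype.card F := Fintype.one_lt_card
  have hHI : H ≤ spGL m F := hH.1.le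
  have fin : ∀ M : Subgroup (GL (Fin m ⊕ Fin m) F), H ≤ M → ¬ spGL m F ≤ M → H = M ⊓ spGL m F :=
    fun M h1 h2 => eq_inf_of_maximal hH h1 h2
  -- the nondegenerate decompositions
  have cD : ∀ {t k : ℕ} (D : Fin t → Submodule F (Fin m ⊕ Fin m → F)),
      IsNondegenerateMDecomposition (sympForm m F) k D → H ≤ decompositionStabilizer D →
      t * k = 2 * m ∧ Even k ∧ H = decompositionStabilizer D ⊓ spGL m F := by
    intro t k D hD h
    refine ⟨by rw [Cfsg.Agent.Lib.Helper55.Asch.card_of_decomp D hD.decomp, hcard], ?_, fin _ h (Cfsg.Agent.Lib.Helper67.SpRow.sp_not_le_decomp D hD.decomp)⟩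
    have i0 : Fin t := ⟨0, by have := hD.decomp.two_le; omega⟩
    rw [← hD.decomp.finrank_eq i0]
    exact Cfsg.Agent.Lib.Helper67.SpRow.even_finrank_of_nondeg (hD.nondegenerate i0)
  have cQ : ∀ Q : (Fin m ⊕ Fin m → F) → F, IsNondegenerateQuadraticForm Q →
      (∀ u v, QuadraticMap.polar Q u v = sympForm m F u v) → H ≤ quadSimilarityGroup Q →
      H = quadSimilarityGroup Q ⊓ spGL m F :=
    fun Q hQ hp h => fin _ h (Cfsg.Agent.Lib.Helper67.SpRow.sp_not_le_quadSim hm Q hQ hp)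
  rcases mainSp hm H hHI with hC | hR
  swap
  · iterate 11 right
    exact hR
  rcases hC with ⟨W, h0, h1, h⟩ | ⟨W, h0, h1, h2, h⟩ | ⟨t, k, D, hD, h⟩ | ⟨D, ho, hD, hts, h⟩ |
    ⟨F₀, r, P, ζ, hr, hc, hζ, hs, h⟩ | ⟨R, p, k, h1, h2, h3, h4, h5, h6, h7, h8, h9, h10, h⟩ |
    ⟨Q, ho, hQ, hp, h⟩ | ⟨r, K, hr, hK, hs, ha, h⟩ | ⟨K, ho, hK, hc, hn, h⟩ |
    ⟨n₁, n₂, e, P, f₁, f₂, ho, h3, h1, h2, hs, h⟩ | ⟨k, t, e, P, f₁, ho, ht, h3, hx, h1, hs, h⟩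
  · left
    exact ⟨W, h0, h1, fin _ h (Cfsg.Agent.Lib.Helper67.SpRow.sp_not_le_stab W h0 (Cfsg.Agent.Lib.Helper67.SpRow.ne_top_of_ts h0 h1))⟩
  · right; left
    refine ⟨W, h0, h1, h2, Cfsg.Agent.Lib.Helper67.SpRow.even_finrank_of_nondeg h1, fin _ h (Cfsg.Agent.Lib.Helper67.SpRow.sp_not_le_stab W h0 ?_)⟩
    rintro rfl
    rw [finrank_top, Module.finrank_fintype_fun_eq_card, hcard] at h2
    omega
  · obtain ⟨e1, e2, e3⟩ := cD D hD h
    by_cases hk : k = 2 ∧ Fintype.card F = 2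
    · obtain ⟨rfl, hq⟩ := hk
      obtain ⟨Q, hQ, hp, hle⟩ := Cfsg.Agent.Lib.Helper86.Sp.sp_blocks_two hq D hD
      iterate 6 right
      left
      exact ⟨Q, by rw [hq]; decide, hQ, hp, cQ Q hQ hp (le_trans (le_inf h hHI) hle)⟩
    · iterate 2 right
      left
      exact ⟨t, k, D, hD, e1, e2, fun hk2 => by
        by_contra hcon
        exact hk ⟨hk2, by omega⟩, e3⟩
  · iterate 3 right
    left
    exact ⟨D, ho, hD, hts, fin _ h (Cfsg.Agent.Lib.Helper67.SpRow.sp_not_le_decomp D hD)⟩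
  · iterate 4 right
    left
    exact ⟨F₀, r, P, ζ, hr, hc, hζ, hs,
      fin _ h (Cfsg.Agent.Lib.Helper65.SpRow.sp_not_le_subfield (by omega) F₀ (Cfsg.Agent.Lib.Helper67.SpRow.subfield_ne_top hr hc) P)⟩
  · iterate 5 right
    left
    exact ⟨R, p, k, h1, h2, h3, h4, h5, h6, h7, h8, h9, h10,
      fin _ h (Cfsg.Agent.Lib.Helper11.Sp.sp_not_le_c6 hm (by rw [h6]; exact h5) R h1.pGroup h2 h3)⟩
  · iterate 6 right
    left
    exact ⟨Q, ho, hQ, hp, cQ Q hQ hp h⟩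
  · iterate 7 right
    left
    exact ⟨r, K, hr, Cfsg.Agent.Lib.Helper65.SpRow.dvd_of_selfAdjoint_field K hK hs ha, hK, hs, ha,
      fin _ h (Cfsg.Agent.Lib.Helper72.SpRow.sp_not_le_field hm hr.two_le K hK)⟩
  · iterate 8 right
    left
    exact ⟨K, ho, hK, hc, hn, fin _ h (Cfsg.Agent.Lib.Helper72.SpRow.sp_not_le_field hm le_rfl K hK)⟩
  · have hn : n₁ * n₂ = 2 * m := by
      have := Fintype.card_congr e
      rw [hcard, Fintype.card_prod, Fintype.card_fin, Fintype.card_fin] at this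
      exact this.symm
    have hev : Even n₁ := by
      have := Cfsg.Agent.Lib.Helper55.Asch.even_card_of_symplectic f₁ h1
      rwa [Fintype.card_fin] at this
    have hn1 : 2 ≤ n₁ := by
      rcases hev with ⟨s, hs'⟩
      rcases Nat.eq_zero_or_pos s with rfl | hs0
      · subst hs'
        simp at hn
        omega
      · omega
    by_cases hk : n₂ = 3 ∧ Fintype.card F = 3
    · obtain ⟨rfl, hq⟩ := hk
      obtain ⟨D, hD, hle⟩ := Cfsg.Agent.Lib.Helper99.SpRow.tensor_three_decomp (by omega) hq e P f₁ f₂ h1 h2 hs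
      obtain ⟨e1, e2, e3⟩ := cD D hD (le_trans (le_inf h hHI) hle)
      iterate 2 right
      left
      exact ⟨3, n₁, D, hD, e1, e2, fun _ => by omega, e3⟩
    · iterate 9 right
      left
      refine ⟨n₁, n₂, e, P, f₁, f₂, ho, h3, hev, hn, fun h3' => ?_, h1, h2, hs,
        fin _ h (Cfsg.Agent.Lib.Helper72.SpRow.sp_not_le_tensor hn1 (by omega) e P)⟩
      by_contra hcon
      rcases ho with ⟨s, hs'⟩
      exact hk ⟨h3', by omega⟩
  · iterate 10 right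
    left
    refine ⟨k, t, e, P, f₁, ho, ht, h3, ?_, hx, h1, hs,
      fin _ h (Cfsg.Agent.Lib.Helper99.SpRow.sp_not_le_wreath (by omega) (by omega) e P f₁ h1 hs)⟩
    have := Fintype.card_congr e
    rw [hcard, Fintype.card_fun, Fintype.card_fin, Fintype.card_fin] at this
    exact this.symm

end Cfsg.Agent.Lib.Helper94.SpRow
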